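import Mathlib
import Cfsg.Agent.Lib.Helper20.LinChar
import Cfsg.Agent.Lib.Helper46.Ind
import Cfsg.Agent.Lib.Helper4.CharClosure

set_option autoImplicit false

namespace Cfsg.Agent.Lib.Helper41.CharCount

open Cfsg
open scoped ComplexConjugate

/-- `p Σ b_j² - (Σ b_j)² ≥ r (p - r)` for naturals `b_j`, `r = (Σ b_j) mod p`. -/
theorem sq_sum_bound (p : ℕ) (b : ℕ → ℕ) :
    ((∑ j ∈ Finset.range p, b j) % p) * (p - (∑ j ∈ Finset.range p, b j) % p)
      + (∑ j ∈ Finset.range p, b j) ^ 2 ≤ p * ∑ j ∈ Finset.range p, b j ^ 2 := by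
  rcases Nat.eq_zero_or_pos p with rfl | hp
  · simp
  set n := ∑ j ∈ Finset.range p, b j with hn
  set q := n / p with hq
  set r := n % p with hr
  have hnqr : n = p * q + r := (Nat.div_add_mod n p).symm
  have hrp : r ≤ p := (Nat.mod_lt n hp).le
  have key : ∀ j, (0 : ℤ) ≤ ((b j : ℤ) - q) * ((b j : ℤ) - q - 1) := by
    intro j
    rcases le_or_gt (b j : ℤ) q with h | h
    · nlinarith
    · have h' : (q : ℤ) + 1 ≤ b j := h
      nlinarith
  have hs : (0 : ℤ) ≤ ∑ j ∈ Finset.range p, ((b j : ℤ) - q) * ((b j : ℤ) - q - 1) :=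
    Finset.sum_nonneg fun j _ => key j
  have hexp : ∑ j ∈ Finset.range p, ((b j : ℤ) - q) * ((b j : ℤ) - q - 1)
      = (∑ j ∈ Finset.range p, (b j : ℤ) ^ 2) - (2 * q + 1) * (n : ℤ) + p * ((q : ℤ) * (q + 1)) := by
    have h1 : ∀ j ∈ Finset.range p, ((b j : ℤ) - q) * ((b j : ℤ) - q - 1)
        = (b j : ℤ) ^ 2 - (2 * q + 1) * (b j : ℤ) + (q : ℤ) * (q + 1) := fun j _ => by ring
    rw [Finset.sum_congr rfl h1, Finset.sum_add_distrib, Finset.sum_sub_distrib,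
      ← Finset.mul_sum, Finset.sum_const, Finset.card_range, nsmul_eq_mul, hn]
    push_cast
    ring
  rw [hexp] at hs
  have hnz : (n : ℤ) = p * q + r := by exact_mod_cast hnqr
  zify [hrp]
  nlinarith [hs, hnz]

theorem geom_sum_root (p : ℕ) (η : ℂ) (hη : η ^ p = 1) :
    ∑ j ∈ Finset.range p, η ^ j = if η = 1 then (p : ℂ) else 0 := by
  split_ifs with h
  · subst h; simp
  · have := geom_sum_mul η p
    rw [hη, sub_self] at this
    exact (mul_eq_zero.mp this).resolve_right (sub_ne_zero.mpr h)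

theorem fourier_sum {p : ℕ} (hp : 0 < p) {ξ : ℂ} (hξ : IsPrimitiveRoot ξ p) (f : ℕ → ℂ) :
    ∑ j ∈ Finset.range p, ∑ k ∈ Finset.range p, f k * ξ ^ (j * k) = p * f 0 := by
  rw [Finset.sum_comm]
  have h : ∀ k ∈ Finset.range p, ∑ j ∈ Finset.range p, f k * ξ ^ (j * k)
      = if k = 0 then (p : ℂ) * f 0 else 0 := by
    intro k hk
    have h1 : ∀ j, f k * ξ ^ (j * k) = f k * (ξ ^ k) ^ j := fun j => by rw [mul_comm j k, pow_mul]
    simp_rw [h1, ← Finset.mul_sum]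
    rw [geom_sum_root p (ξ ^ k) (by rw [← pow_mul, mul_comm, pow_mul, hξ.pow_eq_one, one_pow])]
    have h2 : ξ ^ k = 1 ↔ k = 0 := by
      rw [hξ.pow_eq_one_iff_dvd]
      constructor
      · intro hd
        exact Nat.eq_zero_of_dvd_of_lt hd (Finset.mem_range.mp hk)
      · rintro rfl; exact dvd_zero _
    by_cases hk0 : k = 0
    · subst hk0; simp [mul_comm]
    · simp [hk0, h2]
  rw [Finset.sum_congr rfl h]
  simp [hp]

theorem fourier_parseval {p : ℕ} (hp : 0 < p) {ξ : ℂ} (hξ : IsPrimitiveRoot ξ p) (f : ℕ → ℂ) :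
    ∑ j ∈ Finset.range p, (∑ k ∈ Finset.range p, f k * ξ ^ (j * k))
        * conj (∑ k ∈ Finset.range p, f k * ξ ^ (j * k))
      = p * ∑ k ∈ Finset.range p, f k * conj (f k) := by
  have hnorm : conj ξ = ξ⁻¹ := by
    rw [Complex.inv_eq_conj (hξ.norm'_eq_one hp.ne')]
  have hξ0 : ξ ≠ 0 := hξ.ne_zero hp.ne'
  have h0 : ∀ j ∈ Finset.range p, (∑ k ∈ Finset.range p, f k * ξ ^ (j * k))
        * conj (∑ k ∈ Finset.range p, f k * ξ ^ (j * k))
      = ∑ k ∈ Finset.range p, ∑ l ∈ Finset.range p, f k * conj (f l) * (ξ ^ k * (ξ ^ l)⁻¹) ^ j := by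
    intro j _
    rw [map_sum, Finset.sum_mul_sum]
    refine Finset.sum_congr rfl fun k _ => Finset.sum_congr rfl fun l _ => ?_
    rw [map_mul, map_pow, hnorm, mul_pow, ← pow_mul, inv_pow, inv_pow, ← pow_mul, mul_comm k j,
      mul_comm l j]
    ring
  rw [Finset.sum_congr rfl h0, Finset.sum_comm, Finset.mul_sum]
  refine Finset.sum_congr rfl fun k hk => ?_
  rw [Finset.sum_comm]
  have h1 : ∀ l ∈ Finset.range p, ∑ j ∈ Finset.range p, f k * conj (f l) * (ξ ^ k * (ξ ^ l)⁻¹) ^ j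
      = if l = k then (p : ℂ) * (f k * conj (f k)) else 0 := by
    intro l hl
    rw [← Finset.mul_sum, geom_sum_root p _ (by
      rw [mul_pow, inv_pow, ← pow_mul, ← pow_mul, mul_comm k p, mul_comm l p, pow_mul, pow_mul,
        hξ.pow_eq_one, one_pow, one_pow, inv_one, mul_one])]
    have h2 : ξ ^ k * (ξ ^ l)⁻¹ = 1 ↔ l = k := by
      rw [mul_inv_eq_one₀ (pow_ne_zero _ hξ0)]
      constructor
      · intro h
        exact (hξ.pow_inj (Finset.mem_range.mp hk) (Finset.mem_range.mp hl) h).symm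
      · rintro rfl; rfl
    by_cases hlk : l = k
    · subst hlk; simp [h2]; ring
    · simp [hlk, h2]
  rw [Finset.sum_congr rfl h1]
  simp [hk]

theorem sum_zmod_val {p : ℕ} [NeZero p] (F : ℕ → ℂ) :
    ∑ k : ZMod p, F k.val = ∑ n ∈ Finset.range p, F n := by
  refine Finset.sum_nbij' (fun k => k.val) (fun n => (n : ZMod p)) ?_ ?_ ?_ ?_ ?_
  · intro k _; exact Finset.mem_range.mpr (ZMod.val_lt k)
  · intro n _; exact Finset.mem_univ _
  · intro k _; exact ZMod.natCast_zmod_val k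
  · intro n hn; exact ZMod.val_natCast_of_lt (Finset.mem_range.mp hn)
  · intro k _; rfl

/-- the homomorphism `ZMod p → G`, `k ↦ x ^ k` for `x ^ p = 1` -/
def zhom {G : Type*} [Group G] (p : ℕ) [NeZero p] (x : G) (hx : x ^ p = 1) :
    Multiplicative (ZMod p) →* G where
  toFun k := x ^ (Multiplicative.toAdd k).val
  map_one' := by simp
  map_mul' a b := by
    rw [toAdd_mul, ZMod.val_add, ← pow_add]
    exact (pow_eq_pow_mod _ hx).symm

theorem zhom_apply {G : Type*} [Group G] (p : ℕ) [NeZero p] (x : G) (hx : x ^ p = 1)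
    (k : Multiplicative (ZMod p)) : zhom p x hx k = x ^ (Multiplicative.toAdd k).val := rfl

/-- multiplicities: the twisted sums of a character over `⟨x⟩` are natural multiples of `p |T|`
when the character vanishes on `x^k t`, `t ∈ T \ {1}`. -/
theorem mult_nat {G : Type*} [Group G] [Finite G] {χ : G → ℂ} (hχ : Cfsg.IsCharacter G χ) {p : ℕ}
    (hp : 0 < p) {x : G} (hx : x ^ p = 1) (T : Subgroup G) (hT : ∀ t ∈ T, t * x = x * t)
    (hvan : ∀ k : ℕ, ∀ t ∈ T, t ≠ 1 → χ (x ^ k * t) = 0) {ζ : ℂ} (hζ : ζ ^ p = 1) (j : ℕ) :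
    ∃ b : ℕ, ∑ k ∈ Finset.range p, χ (x ^ k) * (conj ζ) ^ (j * k)
      = (p : ℂ) * (Nat.card T : ℂ) * (b : ℂ) := by
  classical
  haveI : NeZero p := ⟨hp.ne'⟩
  haveI : Fintype G := Fintype.ofFinite G
  haveI : Fintype T := Fintype.ofFinite T
  have hζ0 : ζ ≠ 0 := by
    rintro rfl
    rw [zero_pow hp.ne'] at hζ
    exact zero_ne_one hζ
  let ζu : ℂˣ := Units.mk0 ζ hζ0
  have hζu : (ζu ^ j) ^ p = 1 := by
    apply Units.ext
    simp only [Units.val_pow_eq_pow_val, Units.val_one, ζu, Units.val_mk0]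
    rw [← pow_mul, mul_comm, pow_mul, hζ, one_pow]
  have hcomm : ∀ (m : Multiplicative (ZMod p)) (t : T), Commute (zhom p x hx m) (T.subtype t) := by
    intro m t
    rw [zhom_apply]
    exact ((show Commute (t : G) x from hT t t.2).pow_right _).symm
  let φ : Multiplicative (ZMod p) × T →* G := MonoidHom.noncommCoprod (zhom p x hx) T.subtype hcomm
  let μ : Multiplicative (ZMod p) × T →* ℂˣ :=
    (AddChar.toMonoidHom (AddChar.zmodChar p hζu)).comp (MonoidHom.fst _ _)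
  have hχ' : IsCharacter (Multiplicative (ZMod p) × T) (fun h => χ (φ h)) := by
    obtain ⟨n, ρ, rfl⟩ := hχ
    exact ⟨n, ρ.comp φ, rfl⟩
  have hμ := (Helper20.isCharacter_of_hom μ).1
  obtain ⟨b, hb⟩ := Helper46.classInner_char_char_nat _ _ hχ' hμ
  refine ⟨b, ?_⟩
  have hcard : Nat.card (Multiplicative (ZMod p) × T) = p * Nat.card T := by
    rw [Nat.card_prod]
    congr 1
    rw [Nat.card_congr (Multiplicative.toAdd : Multiplicative (ZMod p) ≃ ZMod p),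
      Nat.card_eq_fintype_card, ZMod.card p]
  unfold classInner at hb
  rw [hcard, Fintype.sum_prod_type] at hb
  have hinner : ∀ m : Multiplicative (ZMod p),
      ∑ t : T, χ (φ (m, t)) * conj ((μ (m, t) : ℂˣ) : ℂ)
        = χ (x ^ (Multiplicative.toAdd m).val) * (conj ζ) ^ (j * (Multiplicative.toAdd m).val) := by
    intro m
    rw [Finset.sum_eq_single (1 : T)]
    · have h1 : φ (m, 1) = x ^ (Multiplicative.toAdd m).val := by
        simp [φ, MonoidHom.noncommCoprod_apply, zhom_apply]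
      have h2 : ((μ (m, 1) : ℂˣ) : ℂ) = ζ ^ (j * (Multiplicative.toAdd m).val) := by
        simp [μ, AddChar.zmodChar_apply, ζu, pow_mul]
      rw [h1, h2, map_pow]
    · intro t _ ht
      have h1 : φ (m, t) = x ^ (Multiplicative.toAdd m).val * (t : G) := by
        simp [φ, MonoidHom.noncommCoprod_apply, zhom_apply]
      rw [h1, hvan _ (t : G) t.2 (fun h => ht (Subtype.ext h)), zero_mul]
    · intro h; exact absurd (Finset.mem_univ _) h
  rw [Finset.sum_congr rfl (fun m _ => hinner m)] at hb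
  have hsum : ∑ m : Multiplicative (ZMod p),
      χ (x ^ (Multiplicative.toAdd m).val) * (conj ζ) ^ (j * (Multiplicative.toAdd m).val)
        = ∑ k ∈ Finset.range p, χ (x ^ k) * (conj ζ) ^ (j * k) := by
    rw [← sum_zmod_val (p := p) (fun k => χ (x ^ k) * (conj ζ) ^ (j * k))]
    exact Fintype.sum_equiv Multiplicative.toAdd _ _ (fun m => rfl)
  rw [hsum] at hb
  have hne : ((p * Nat.card T : ℕ) : ℂ) ≠ 0 :=
    Nat.cast_ne_zero.mpr (Nat.mul_pos hp Nat.card_pos).ne'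
  rw [inv_mul_eq_iff_eq_mul₀ hne] at hb
  rw [hb]
  push_cast
  ring

/-- (C1) If the character `χ` vanishes on the elements `x^k t` (`t ∈ T`, `t ≠ 1`), where `x` has
prime order `p` and `T` centralizes `x`, then `|T|` divides `χ(1)` and, with `n = χ(1)/|T|` and
`r = n mod p`, `Σ_{k=1}^{p-1} |χ(x^k)|² ≥ |T|² r (p - r)`. -/
theorem c1 {G : Type*} [Group G] [Finite G] {χ : G → ℂ} (hχ : Cfsg.IsCharacter G χ) {p : ℕ}
    (hp : p.Prime) {x : G} (hx : orderOf x = p) (T : Subgroup G) (hT : ∀ t ∈ T, t * x = x * t)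
    (hvan : ∀ k : ℕ, ∀ t ∈ T, t ≠ 1 → χ (x ^ k * t) = 0) :
    ∃ n : ℕ, χ 1 = ((Nat.card T * n : ℕ) : ℂ) ∧
      ((Nat.card T : ℝ) ^ 2 * (((n % p) * (p - n % p) : ℕ) : ℝ)
        ≤ ∑ k ∈ Finset.Ico 1 p, ‖χ (x ^ k)‖ ^ 2) := by
  classical
  have hp0 : 0 < p := hp.pos
  have hxp : x ^ p = 1 := by rw [← hx]; exact pow_orderOf_eq_one x
  set ζ : ℂ := Complex.exp (2 * Real.pi * Complex.I / p) with hζdef
  have hζ : IsPrimitiveRoot ζ p := Complex.isPrimitiveRoot_exp p hp0.ne'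
  have hξ : IsPrimitiveRoot (conj ζ) p := by
    rw [← Complex.inv_eq_conj (hζ.norm'_eq_one hp0.ne')]
    exact hζ.inv
  choose b hb using fun j => mult_nat hχ hp0 hxp T hT hvan hζ.pow_eq_one j
  set f : ℕ → ℂ := fun k => χ (x ^ k) with hf
  set n := ∑ j ∈ Finset.range p, b j with hn
  have hT0 : (Nat.card T : ℂ) ≠ 0 := Nat.cast_ne_zero.mpr Nat.card_pos.ne'
  have hpC : (p : ℂ) ≠ 0 := Nat.cast_ne_zero.mpr hp0.ne'
  have h1 := fourier_sum hp0 hξ f
  have hf0 : f 0 = ((Nat.card T * n : ℕ) : ℂ) := by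
    have h3 : ∑ j ∈ Finset.range p, (p : ℂ) * (Nat.card T : ℂ) * (b j : ℂ) = p * f 0 := by
      rw [← h1]; exact Finset.sum_congr rfl fun j _ => (hb j).symm
    rw [← Finset.mul_sum, mul_assoc] at h3
    have h4 := mul_left_cancel₀ hpC h3
    rw [← h4, hn]
    push_cast
    rfl
  have hχ1 : χ 1 = ((Nat.card T * n : ℕ) : ℂ) := by
    rw [← hf0]; simp [hf]
  refine ⟨n, hχ1, ?_⟩
  have h2 := fourier_parseval hp0 hξ f
  have h5 : ∑ j ∈ Finset.range p, (∑ k ∈ Finset.range p, f k * (conj ζ) ^ (j * k))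
        * conj (∑ k ∈ Finset.range p, f k * (conj ζ) ^ (j * k))
      = ∑ j ∈ Finset.range p, (((p : ℝ) * (Nat.card T : ℝ) * (b j : ℝ)) ^ 2 : ℝ) := by
    push_cast
    refine Finset.sum_congr rfl fun j _ => ?_
    rw [hb j]
    simp only [map_mul, Complex.conj_natCast]
    ring
  have h6 : (p : ℂ) * ∑ k ∈ Finset.range p, f k * conj (f k)
      = (((p : ℝ) * ∑ k ∈ Finset.range p, ‖f k‖ ^ 2 : ℝ) : ℂ) := by
    push_cast
    congr 1
    refine Finset.sum_congr rfl fun k _ => ?_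
    rw [Complex.mul_conj']
  rw [h5, h6] at h2
  have h7 : ∑ j ∈ Finset.range p, ((p : ℝ) * (Nat.card T : ℝ) * (b j : ℝ)) ^ 2
      = (p : ℝ) * ∑ k ∈ Finset.range p, ‖f k‖ ^ 2 := by exact_mod_cast h2
  have hpR : (0 : ℝ) < p := by exact_mod_cast hp0
  have h8 : ∑ k ∈ Finset.range p, ‖f k‖ ^ 2
      = (p : ℝ) * (Nat.card T : ℝ) ^ 2 * ∑ j ∈ Finset.range p, (b j : ℝ) ^ 2 := by
    have h9 : ∑ j ∈ Finset.range p, ((p : ℝ) * (Nat.card T : ℝ) * (b j : ℝ)) ^ 2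
        = (p : ℝ) * ((p : ℝ) * (Nat.card T : ℝ) ^ 2 * ∑ j ∈ Finset.range p, (b j : ℝ) ^ 2) := by
      rw [Finset.mul_sum, Finset.mul_sum]
      refine Finset.sum_congr rfl fun j _ => ?_
      ring
    rw [h9] at h7
    exact (mul_left_cancel₀ hpR.ne' h7).symm
  have h10 : ∑ k ∈ Finset.range p, ‖f k‖ ^ 2 = ‖f 0‖ ^ 2 + ∑ k ∈ Finset.Ico 1 p, ‖f k‖ ^ 2 := by
    rw [Finset.range_eq_Ico, Finset.sum_eq_sum_Ico_succ_bot hp0]
  have h11 : ‖f 0‖ ^ 2 = (Nat.card T : ℝ) ^ 2 * (n : ℝ) ^ 2 := by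
    rw [hf0, Complex.norm_natCast]
    push_cast
    ring
  have h12 := sq_sum_bound p b
  rw [← hn] at h12
  have h13 : (((n % p) * (p - n % p) : ℕ) : ℝ) + (n : ℝ) ^ 2
      ≤ (p : ℝ) * ∑ j ∈ Finset.range p, (b j : ℝ) ^ 2 := by
    exact_mod_cast h12
  have hT2 : (0 : ℝ) ≤ (Nat.card T : ℝ) ^ 2 := sq_nonneg _
  have h14 : ∑ k ∈ Finset.Ico 1 p, ‖f k‖ ^ 2
      = (Nat.card T : ℝ) ^ 2 * ((p : ℝ) * ∑ j ∈ Finset.range p, (b j : ℝ) ^ 2 - (n : ℝ) ^ 2) := by
    have : ∑ k ∈ Finset.Ico 1 p, ‖f k‖ ^ 2 = ∑ k ∈ Finset.range p, ‖f k‖ ^ 2 - ‖f 0‖ ^ 2 := by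
      rw [h10]; ring
    rw [this, h8, h11]; ring
  show (Nat.card T : ℝ) ^ 2 * (((n % p) * (p - n % p) : ℕ) : ℝ) ≤ ∑ k ∈ Finset.Ico 1 p, ‖f k‖ ^ 2
  rw [h14]
  apply mul_le_mul_of_nonneg_left _ hT2
  linarith

/-- (C1), with the centralizer hypothesis in subgroup form. -/
theorem c1' {G : Type*} [Group G] [Finite G] {χ : G → ℂ} (hχ : Cfsg.IsCharacter G χ) {p : ℕ}
    (hp : p.Prime) {x : G} (hx : orderOf x = p) (T : Subgroup G)
    (hT : T ≤ Subgroup.centralizer ({x} : Set G))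
    (hvan : ∀ k : ℕ, ∀ t ∈ T, t ≠ 1 → χ (x ^ k * t) = 0) :
    ∃ n : ℕ, χ 1 = ((Nat.card T * n : ℕ) : ℂ) ∧
      ((Nat.card T : ℝ) ^ 2 * (((n % p) * (p - n % p) : ℕ) : ℝ)
        ≤ ∑ k ∈ Finset.Ico 1 p, ‖χ (x ^ k)‖ ^ 2) :=
  c1 hχ hp hx T (fun t ht => ((Subgroup.mem_centralizer_iff.mp (hT ht)) x rfl).symm) hvan

/-- conjugation by `n` maps `⟨x⟩` into itself if it maps a generator `x^k` into `⟨x⟩`. -/
theorem conj_mem_zpowers {G : Type*} [Group G] {p : ℕ} (hp : p.Prime) {x : G}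
    (hx : orderOf x = p) {n : G} {k k' : ℕ} (hk : k ∈ Finset.Ico 1 p)
    (h : n * x ^ k * n⁻¹ = x ^ k') (y : G) (hy : y ∈ Subgroup.zpowers x) :
    n * y * n⁻¹ ∈ Subgroup.zpowers x := by
  obtain ⟨hk1, hkp⟩ := Finset.mem_Ico.mp hk
  have hcop : Nat.Coprime k p := by
    rw [Nat.coprime_comm, hp.coprime_iff_not_dvd]
    intro hd
    exact absurd (Nat.le_of_dvd (by omega) hd) (by omega)
  obtain ⟨m, -, hm⟩ := Nat.exists_mul_mod_eq_one_of_coprime hcop hp.one_lt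
  have hx1 : (x ^ k) ^ m = x := by
    rw [← pow_mul, ← pow_mod_orderOf, hx, hm, pow_one]
  have hnx : n * x * n⁻¹ ∈ Subgroup.zpowers x := by
    have : n * x * n⁻¹ = (x ^ k') ^ m := by
      rw [← h, conj_pow, hx1]
    rw [this, ← pow_mul]
    exact Subgroup.pow_mem _ (Subgroup.mem_zpowers x) _
  obtain ⟨i, rfl⟩ := Subgroup.mem_zpowers_iff.mp hy
  rw [← conj_zpow]
  exact Subgroup.zpow_mem _ hnx i

/-- (C2) Counting over the elements of order `p`: for a class function `χ` and `x` of prime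
order `p`, `|G| Σ_{k=1}^{p-1} |χ(x^k)|² ≤ |N_G(⟨x⟩)| Σ_{o(y)=p} |χ(y)|²`. -/
theorem c2 {G : Type*} [Group G] [Fintype G] [DecidableEq G] {χ : G → ℂ}
    (hcl : ∀ g h : G, χ (h * g * h⁻¹) = χ g) {p : ℕ} (hp : p.Prime) {x : G} (hx : orderOf x = p) :
    (Nat.card G : ℝ) * ∑ k ∈ Finset.Ico 1 p, ‖χ (x ^ k)‖ ^ 2
      ≤ (Nat.card ↥(Subgroup.normalizer ((Subgroup.zpowers x : Subgroup G) : Set G)) : ℝ)
          * ∑ y ∈ Finset.univ.filter (fun y : G => orderOf y = p), ‖χ y‖ ^ 2 := by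
  classical
  set N := Subgroup.normalizer ((Subgroup.zpowers x : Subgroup G) : Set G) with hN
  set s : Finset (G × ℕ) := Finset.univ ×ˢ Finset.Ico 1 p with hs
  set t : Finset G := Finset.univ.filter (fun y : G => orderOf y = p) with ht
  let ψ : G × ℕ → G := fun a => a.1 * x ^ a.2 * a.1⁻¹
  have hmaps : ∀ a ∈ s, ψ a ∈ t := by
    intro a ha
    obtain ⟨-, hk⟩ := Finset.mem_product.mp ha
    obtain ⟨hk1, hkp⟩ := Finset.mem_Ico.mp hk
    rw [ht, Finset.mem_filter]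
    refine ⟨Finset.mem_univ _, ?_⟩
    have h1 : orderOf (a.1 * x ^ a.2 * a.1⁻¹) = orderOf (x ^ a.2) :=
      (MulAut.conj a.1).orderOf_eq (x ^ a.2)
    have hcop : Nat.Coprime p a.2 := by
      rw [hp.coprime_iff_not_dvd]
      intro hd
      exact absurd (Nat.le_of_dvd (by omega) hd) (by omega)
    show orderOf (a.1 * x ^ a.2 * a.1⁻¹) = p
    rw [h1, Nat.Coprime.orderOf_pow (by rw [hx]; exact hcop), hx]
  have hL : (Nat.card G : ℝ) * ∑ k ∈ Finset.Ico 1 p, ‖χ (x ^ k)‖ ^ 2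
      = ∑ a ∈ s, ‖χ (ψ a)‖ ^ 2 := by
    rw [hs, Finset.sum_product]
    have : ∀ g ∈ (Finset.univ : Finset G), ∑ k ∈ Finset.Ico 1 p, ‖χ (ψ (g, k))‖ ^ 2
        = ∑ k ∈ Finset.Ico 1 p, ‖χ (x ^ k)‖ ^ 2 := by
      intro g _
      refine Finset.sum_congr rfl fun k _ => ?_
      show ‖χ (g * x ^ k * g⁻¹)‖ ^ 2 = _
      rw [hcl]
    rw [Finset.sum_congr rfl this, Finset.sum_const, Finset.card_univ, nsmul_eq_mul,
      Nat.card_eq_fintype_card]
  rw [hL, ← Finset.sum_fiberwise_of_maps_to hmaps, Finset.mul_sum]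
  refine Finset.sum_le_sum fun y hy => ?_
  have hconst : ∑ a ∈ s.filter (fun a => ψ a = y), ‖χ (ψ a)‖ ^ 2
      = ((s.filter (fun a => ψ a = y)).card : ℝ) * ‖χ y‖ ^ 2 := by
    rw [Finset.sum_congr rfl (fun a ha => by rw [(Finset.mem_filter.mp ha).2]),
      Finset.sum_const, nsmul_eq_mul]
  rw [hconst]
  apply mul_le_mul_of_nonneg_right _ (sq_nonneg _)
  have hcard : (s.filter (fun a => ψ a = y)).card ≤ Nat.card N := by
    rcases (s.filter (fun a => ψ a = y)).eq_empty_or_nonempty with he | ⟨a₀, ha₀⟩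
    · rw [he]; simp
    obtain ⟨ha₀s, ha₀y⟩ := Finset.mem_filter.mp ha₀
    have hk₀ := (Finset.mem_product.mp ha₀s).2
    have hNcard : Nat.card N = (Finset.univ.filter (fun g : G => g ∈ N)).card := by
      rw [Nat.card_eq_fintype_card, Fintype.card_subtype]
    rw [hNcard]
    apply Finset.card_le_card_of_injOn (fun a => a₀.1⁻¹ * a.1)
    · intro a ha
      obtain ⟨has, hay⟩ := Finset.mem_filter.mp (Finset.mem_coe.mp ha)
      have hk := (Finset.mem_product.mp has).2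
      rw [Finset.mem_coe, Finset.mem_filter]
      refine ⟨Finset.mem_univ _, ?_⟩
      have e1 : (a₀.1⁻¹ * a.1) * x ^ a.2 * (a₀.1⁻¹ * a.1)⁻¹ = x ^ a₀.2 := by
        have : a.1 * x ^ a.2 * a.1⁻¹ = a₀.1 * x ^ a₀.2 * a₀.1⁻¹ := hay.trans ha₀y.symm
        calc (a₀.1⁻¹ * a.1) * x ^ a.2 * (a₀.1⁻¹ * a.1)⁻¹
            = a₀.1⁻¹ * (a.1 * x ^ a.2 * a.1⁻¹) * a₀.1 := by group
          _ = a₀.1⁻¹ * (a₀.1 * x ^ a₀.2 * a₀.1⁻¹) * a₀.1 := by rw [this]
          _ = x ^ a₀.2 := by group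
      have e2 : (a₀.1⁻¹ * a.1)⁻¹ * x ^ a₀.2 * ((a₀.1⁻¹ * a.1)⁻¹)⁻¹ = x ^ a.2 := by
        rw [← e1]; group
      rw [hN, Subgroup.mem_normalizer_iff]
      intro h
      constructor
      · intro hh
        exact conj_mem_zpowers hp hx hk e1 h hh
      · intro hh
        have := conj_mem_zpowers hp hx hk₀ e2 _ hh
        have e3 : (a₀.1⁻¹ * a.1)⁻¹ * ((a₀.1⁻¹ * a.1) * h * (a₀.1⁻¹ * a.1)⁻¹) * ((a₀.1⁻¹ * a.1)⁻¹)⁻¹
            = h := by group
        rwa [e3] at this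
    · intro a ha b hb hab
      obtain ⟨has, hay⟩ := Finset.mem_filter.mp (Finset.mem_coe.mp ha)
      obtain ⟨hbs, hby⟩ := Finset.mem_filter.mp (Finset.mem_coe.mp hb)
      have hka := Finset.mem_Ico.mp (Finset.mem_product.mp has).2
      have hkb := Finset.mem_Ico.mp (Finset.mem_product.mp hbs).2
      have h1 : a.1 = b.1 := mul_left_cancel hab
      have h2 : x ^ a.2 = x ^ b.2 := by
        have : a.1 * x ^ a.2 * a.1⁻¹ = b.1 * x ^ b.2 * b.1⁻¹ := hay.trans hby.symm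
        rw [h1] at this
        exact mul_left_cancel (mul_right_cancel this)
      have h3 : a.2 = b.2 :=
        pow_injOn_Iio_orderOf (by rw [hx]; exact hka.2) (by rw [hx]; exact hkb.2) h2
      exact Prod.ext h1 h3
  exact_mod_cast hcard

end Cfsg.Agent.Lib.Helper41.CharCount
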