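import Cfsg.Agent.Lib.Helper41.CharCount

set_option autoImplicit false

namespace Cfsg.Agent.Lib.Helper41.CharCount

open Cfsg
open scoped ComplexConjugate

theorem int_bound (p : ℕ) (hp : 0 < p) (b : ℕ → ℕ) (Q : ℕ)
    (h : ∑ j ∈ Finset.range p, b j + 1 = p * Q) :
    (1 : ℤ) + b 0 + p * (Q : ℤ) ^ 2 ≤ ∑ j ∈ Finset.range p, (b j : ℤ) ^ 2 + 3 * Q := by
  obtain ⟨S, hS⟩ : ∃ S : ℤ, S = ∑ j ∈ Finset.range p, (b j : ℤ) := ⟨_, rfl⟩
  have hS1 : S + 1 = p * Q := by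
    have : ((∑ j ∈ Finset.range p, b j + 1 : ℕ) : ℤ) = ((p * Q : ℕ) : ℤ) := by rw [h]
    push_cast at this
    rw [hS]
    exact this
  have hsq : ∑ j ∈ Finset.range p, ((Q : ℤ) - b j) ^ 2
      = ∑ j ∈ Finset.range p, (b j : ℤ) ^ 2 - 2 * Q * S + p * (Q : ℤ) ^ 2 := by
    have h1 : ∀ j ∈ Finset.range p, ((Q : ℤ) - b j) ^ 2
        = (b j : ℤ) ^ 2 - 2 * Q * (b j : ℤ) + (Q : ℤ) ^ 2 := fun j _ => by ring
    rw [Finset.sum_congr rfl h1, Finset.sum_add_distrib, Finset.sum_sub_distrib,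
      ← Finset.mul_sum, Finset.sum_const, Finset.card_range, nsmul_eq_mul, hS]
  have hge : ∀ j, ((Q : ℤ) - b j) ≤ ((Q : ℤ) - b j) ^ 2 := by
    intro j
    rcases le_or_gt ((Q : ℤ) - b j) 0 with h0 | h0
    · nlinarith [sq_nonneg ((Q : ℤ) - b j)]
    · have : (1 : ℤ) ≤ (Q : ℤ) - b j := h0
      nlinarith
  have hsplit1 : ∑ j ∈ Finset.range p, ((Q : ℤ) - b j) ^ 2
      = ((Q : ℤ) - b 0) ^ 2 + ∑ j ∈ Finset.Ico 1 p, ((Q : ℤ) - b j) ^ 2 := by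
    rw [Finset.range_eq_Ico, Finset.sum_eq_sum_Ico_succ_bot hp]
  have hsplit2 : ∑ j ∈ Finset.range p, ((Q : ℤ) - b j)
      = ((Q : ℤ) - b 0) + ∑ j ∈ Finset.Ico 1 p, ((Q : ℤ) - b j) := by
    rw [Finset.range_eq_Ico, Finset.sum_eq_sum_Ico_succ_bot hp]
  have hsum : ∑ j ∈ Finset.range p, ((Q : ℤ) - b j) = p * Q - S := by
    rw [Finset.sum_sub_distrib, Finset.sum_const, Finset.card_range, nsmul_eq_mul, hS]
  have hle : ∑ j ∈ Finset.Ico 1 p, ((Q : ℤ) - b j)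
      ≤ ∑ j ∈ Finset.Ico 1 p, ((Q : ℤ) - b j) ^ 2 := Finset.sum_le_sum fun j _ => hge j
  have hQS : (Q : ℤ) * S = p * (Q : ℤ) ^ 2 - Q := by
    have : S = p * Q - 1 := by linarith
    rw [this]
    ring
  nlinarith [sq_nonneg ((Q : ℤ) - b 0)]

/-- Shifted version of (C1): if `χ(1) = pQ - 1` then
`Σ_{k=1}^{p-1} |χ(x^k) - 1/2|² ≥ (5p - 9)/4`. -/
theorem c1L {G : Type*} [Group G] [Finite G] {χ : G → ℂ} (hχ : Cfsg.IsCharacter G χ) {p : ℕ}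
    (hp : p.Prime) {x : G} (hx : orderOf x = p) {Q : ℕ} (hQ : χ 1 = ((p * Q : ℕ) : ℂ) - 1) :
    ((5 * (p : ℝ) - 9) / 4 ≤ ∑ k ∈ Finset.Ico 1 p, ‖χ (x ^ k) - 1 / 2‖ ^ 2) := by
  classical
  have hp0 : 0 < p := hp.pos
  have hxp : x ^ p = 1 := by rw [← hx]; exact pow_orderOf_eq_one x
  set ζ : ℂ := Complex.exp (2 * Real.pi * Complex.I / p) with hζdef
  have hζ : IsPrimitiveRoot ζ p := Complex.isPrimitiveRoot_exp p hp0.ne'
  have hξ : IsPrimitiveRoot (conj ζ) p := by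
    rw [← Complex.inv_eq_conj (hζ.norm'_eq_one hp0.ne')]
    exact hζ.inv
  have hT : ∀ t ∈ (⊥ : Subgroup G), t * x = x * t := by
    intro t ht
    rw [Subgroup.mem_bot] at ht
    subst ht
    simp
  have hvan : ∀ k : ℕ, ∀ t ∈ (⊥ : Subgroup G), t ≠ 1 → χ (x ^ k * t) = 0 := by
    intro k t ht ht1
    exact absurd (Subgroup.mem_bot.mp ht) ht1
  choose b hb using fun j => mult_nat hχ hp0 hxp (⊥ : Subgroup G) hT hvan hζ.pow_eq_one j
  have hb' : ∀ j, ∑ k ∈ Finset.range p, χ (x ^ k) * (conj ζ) ^ (j * k) = (p : ℂ) * (b j : ℂ) := by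
    intro j
    rw [hb j, Subgroup.card_bot]
    simp
  set f : ℕ → ℂ := fun k => χ (x ^ k) with hf
  set g : ℕ → ℂ := fun k => χ (x ^ k) - 1 / 2 with hg
  have hpC : (p : ℂ) ≠ 0 := Nat.cast_ne_zero.mpr hp0.ne'
  have h1 := fourier_sum hp0 hξ f
  have hbsum : ∑ j ∈ Finset.range p, b j + 1 = p * Q := by
    have h3 : ∑ j ∈ Finset.range p, (p : ℂ) * (b j : ℂ) = p * f 0 := by
      rw [← h1]
      exact Finset.sum_congr rfl fun j _ => (hb' j).symm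
    rw [← Finset.mul_sum] at h3
    have h4 := mul_left_cancel₀ hpC h3
    have h5 : f 0 = ((p * Q : ℕ) : ℂ) - 1 := by
      show χ (x ^ 0) = _
      rw [pow_zero]
      exact hQ
    rw [h5] at h4
    have h6 : ((∑ j ∈ Finset.range p, b j + 1 : ℕ) : ℂ) = ((p * Q : ℕ) : ℂ) := by
      push_cast
      push_cast at h4
      rw [h4]
      ring
    exact_mod_cast h6
  have hghat : ∀ j ∈ Finset.range p, ∑ k ∈ Finset.range p, g k * (conj ζ) ^ (j * k)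
      = (((p : ℝ) * (b j : ℝ) - if j = 0 then (p : ℝ) / 2 else 0 : ℝ) : ℂ) := by
    intro j hj
    have e1 : ∑ k ∈ Finset.range p, g k * (conj ζ) ^ (j * k)
        = ∑ k ∈ Finset.range p, f k * (conj ζ) ^ (j * k)
          - (1 / 2) * ∑ k ∈ Finset.range p, ((conj ζ) ^ j) ^ k := by
      rw [Finset.mul_sum, ← Finset.sum_sub_distrib]
      refine Finset.sum_congr rfl fun k _ => ?_
      show (χ (x ^ k) - 1 / 2) * (conj ζ) ^ (j * k)
        = χ (x ^ k) * (conj ζ) ^ (j * k) - 1 / 2 * ((conj ζ) ^ j) ^ k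
      rw [pow_mul]
      ring
    rw [e1, hb' j, geom_sum_root p ((conj ζ) ^ j)
      (by rw [← pow_mul, mul_comm, pow_mul, hξ.pow_eq_one, one_pow])]
    have h2 : (conj ζ) ^ j = 1 ↔ j = 0 := by
      rw [hξ.pow_eq_one_iff_dvd]
      constructor
      · intro hd
        exact Nat.eq_zero_of_dvd_of_lt hd (Finset.mem_range.mp hj)
      · rintro rfl
        exact dvd_zero _
    by_cases hj0 : j = 0
    · subst hj0
      rw [if_pos (pow_zero _), if_pos rfl]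
      push_cast
      ring
    · rw [if_neg (by rw [h2]; exact hj0), if_neg hj0]
      push_cast
      ring
  have h2 := fourier_parseval hp0 hξ g
  have h5 : ∑ j ∈ Finset.range p, (∑ k ∈ Finset.range p, g k * (conj ζ) ^ (j * k))
        * conj (∑ k ∈ Finset.range p, g k * (conj ζ) ^ (j * k))
      = ((∑ j ∈ Finset.range p,
          ((p : ℝ) * (b j : ℝ) - if j = 0 then (p : ℝ) / 2 else 0) ^ 2 : ℝ) : ℂ) := by
    rw [Complex.ofReal_sum]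
    refine Finset.sum_congr rfl fun j hj => ?_
    rw [hghat j hj, Complex.conj_ofReal, Complex.ofReal_pow]
    ring
  have h6 : (p : ℂ) * ∑ k ∈ Finset.range p, g k * conj (g k)
      = (((p : ℝ) * ∑ k ∈ Finset.range p, ‖g k‖ ^ 2 : ℝ) : ℂ) := by
    push_cast
    congr 1
    refine Finset.sum_congr rfl fun k _ => ?_
    rw [Complex.mul_conj']
  rw [h5, h6] at h2
  have h7 : ∑ j ∈ Finset.range p, ((p : ℝ) * (b j : ℝ) - if j = 0 then (p : ℝ) / 2 else 0) ^ 2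
      = (p : ℝ) * ∑ k ∈ Finset.range p, ‖g k‖ ^ 2 := by exact_mod_cast h2
  have hpR : (0 : ℝ) < p := by exact_mod_cast hp0
  have h8 : ∑ j ∈ Finset.range p, ((p : ℝ) * (b j : ℝ) - if j = 0 then (p : ℝ) / 2 else 0) ^ 2
      = (p : ℝ) ^ 2 * (∑ j ∈ Finset.range p, (b j : ℝ) ^ 2 - b 0 + 1 / 4) := by
    rw [Finset.range_eq_Ico, Finset.sum_eq_sum_Ico_succ_bot hp0,
      Finset.sum_eq_sum_Ico_succ_bot hp0]
    have hrest : ∀ j ∈ Finset.Ico (0 + 1) p,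
        ((p : ℝ) * (b j : ℝ) - if j = 0 then (p : ℝ) / 2 else 0) ^ 2
          = (p : ℝ) ^ 2 * (b j : ℝ) ^ 2 := by
      intro j hj
      have hj0 : j ≠ 0 := by
        have := (Finset.mem_Ico.mp hj).1
        omega
      rw [if_neg hj0]
      ring
    rw [Finset.sum_congr rfl hrest, ← Finset.mul_sum, if_pos rfl]
    ring
  have h9 : ∑ k ∈ Finset.range p, ‖g k‖ ^ 2
      = (p : ℝ) * (∑ j ∈ Finset.range p, (b j : ℝ) ^ 2 - b 0 + 1 / 4) := by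
    rw [h8] at h7
    have : (p : ℝ) * ((p : ℝ) * (∑ j ∈ Finset.range p, (b j : ℝ) ^ 2 - b 0 + 1 / 4))
        = (p : ℝ) * ∑ k ∈ Finset.range p, ‖g k‖ ^ 2 := by
      rw [← h7]
      ring
    exact (mul_left_cancel₀ hpR.ne' this).symm
  have h10 : ∑ k ∈ Finset.range p, ‖g k‖ ^ 2 = ‖g 0‖ ^ 2 + ∑ k ∈ Finset.Ico 1 p, ‖g k‖ ^ 2 := by
    rw [Finset.range_eq_Ico, Finset.sum_eq_sum_Ico_succ_bot hp0]
  have h11 : ‖g 0‖ ^ 2 = ((p : ℝ) * Q - 3 / 2) ^ 2 := by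
    have : g 0 = (((p : ℝ) * Q - 3 / 2 : ℝ) : ℂ) := by
      show χ (x ^ 0) - 1 / 2 = _
      rw [pow_zero, hQ]
      push_cast
      ring
    rw [this, Complex.norm_real, Real.norm_eq_abs, sq_abs]
  have h12 := int_bound p hp0 b Q hbsum
  have h13 : (1 : ℝ) + b 0 + p * (Q : ℝ) ^ 2 ≤ ∑ j ∈ Finset.range p, (b j : ℝ) ^ 2 + 3 * Q := by
    exact_mod_cast h12
  show (5 * (p : ℝ) - 9) / 4 ≤ ∑ k ∈ Finset.Ico 1 p, ‖g k‖ ^ 2
  have h14 : ∑ k ∈ Finset.Ico 1 p, ‖g k‖ ^ 2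
      = (p : ℝ) * (∑ j ∈ Finset.range p, (b j : ℝ) ^ 2 - b 0 + 1 / 4)
        - ((p : ℝ) * Q - 3 / 2) ^ 2 := by
    rw [← h9, h10, h11]
    ring
  rw [h14]
  nlinarith [mul_le_mul_of_nonneg_left h13 hpR.le]

/-- If `x` of order 5 is conjugate to `x²` and `χ(1) = 5Q - 1`, then
`Σ_{k=1}^{4} |χ(x^k) - 1/2|² ≥ 9`. -/
theorem l5 {G : Type*} [Group G] [Finite G] {χ : G → ℂ} (hχ : Cfsg.IsCharacter G χ) {x g : G}
    (hx : orderOf x = 5) (hg : g * x * g⁻¹ = x ^ 2) {Q : ℕ} (hQ : χ 1 = ((5 * Q : ℕ) : ℂ) - 1) :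
    ((9 : ℝ) ≤ ∑ k ∈ Finset.Ico 1 5, ‖χ (x ^ k) - 1 / 2‖ ^ 2) := by
  classical
  have hcl := Cfsg.Agent.Lib.Helper4.isClassFunction_of_isCharacter χ hχ
  have hx5 : x ^ 5 = 1 := by rw [← hx]; exact pow_orderOf_eq_one x
  have hpow : ∀ k : ℕ, g * x ^ k * g⁻¹ = (x ^ k) ^ 2 := by
    intro k
    rw [← conj_pow, hg, ← pow_mul, ← pow_mul, mul_comm]
  have h2 : χ (x ^ 2) = χ (x ^ 1) := by
    rw [pow_one, ← hg]
    exact hcl x g
  have h4 : χ (x ^ 4) = χ (x ^ 1) := by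
    have : x ^ 4 = g * x ^ 2 * g⁻¹ := by rw [hpow 2, ← pow_mul]
    rw [this, hcl (x ^ 2) g, h2]
  have h3 : χ (x ^ 3) = χ (x ^ 1) := by
    have : x ^ 3 = g * x ^ 4 * g⁻¹ := by
      rw [hpow 4, ← pow_mul]
      calc x ^ 3 = x ^ 3 * x ^ 5 := by rw [hx5, mul_one]
        _ = x ^ (4 * 2) := by rw [← pow_add]
    rw [this, hcl (x ^ 4) g, h4]
  set ζ : ℂ := Complex.exp (2 * Real.pi * Complex.I / (5 : ℕ)) with hζdef
  have hζ : IsPrimitiveRoot ζ 5 := Complex.isPrimitiveRoot_exp 5 (by norm_num)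
  have hξ : IsPrimitiveRoot (conj ζ) 5 := by
    rw [← Complex.inv_eq_conj (hζ.norm'_eq_one (by norm_num))]
    exact hζ.inv
  have hT : ∀ t ∈ (⊥ : Subgroup G), t * x = x * t := by
    intro t ht
    rw [Subgroup.mem_bot] at ht
    subst ht
    simp
  have hvan : ∀ k : ℕ, ∀ t ∈ (⊥ : Subgroup G), t ≠ 1 → χ (x ^ k * t) = 0 := by
    intro k t ht ht1
    exact absurd (Subgroup.mem_bot.mp ht) ht1
  obtain ⟨b, hb⟩ := mult_nat hχ (by norm_num : 0 < 5) hx5 (⊥ : Subgroup G) hT hvan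
    hζ.pow_eq_one 1
  rw [Subgroup.card_bot] at hb
  have hgeom := geom_sum_root 5 (conj ζ) hξ.pow_eq_one
  have hne1 : conj ζ ≠ 1 := hξ.ne_one (by norm_num)
  rw [if_neg hne1] at hgeom
  simp only [Finset.sum_range_succ, Finset.sum_range_zero, pow_zero, zero_add] at hgeom
  have hs : (conj ζ) ^ 1 + (conj ζ) ^ 2 + (conj ζ) ^ 3 + (conj ζ) ^ 4 = -1 := by
    linear_combination hgeom
  have hb2 : χ 1 + χ (x ^ 1) * ((conj ζ) ^ 1 + (conj ζ) ^ 2 + (conj ζ) ^ 3 + (conj ζ) ^ 4)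
      = 5 * (b : ℂ) := by
    simp only [Finset.sum_range_succ, Finset.sum_range_zero, one_mul, pow_zero, zero_add,
      mul_one] at hb
    rw [h2, h3, h4] at hb
    push_cast at hb
    linear_combination hb
  have hc : χ (x ^ 1) = (((5 * (Q : ℤ) - 1 - 5 * b : ℤ) : ℝ) : ℂ) := by
    rw [hs, hQ] at hb2
    push_cast at hb2 ⊢
    linear_combination (-1 : ℂ) * hb2
  have hm : ∀ k ∈ Finset.Ico 1 5, ‖χ (x ^ k) - 1 / 2‖ ^ 2
      = (((5 * (Q : ℤ) - 1 - 5 * b : ℤ) : ℝ) - 1 / 2) ^ 2 := by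
    intro k hk
    have hk' : χ (x ^ k) = χ (x ^ 1) := by
      obtain ⟨hk1, hk5⟩ := Finset.mem_Ico.mp hk
      interval_cases k
      · rfl
      · exact h2
      · exact h3
      · exact h4
    rw [hk', hc]
    have : ((((5 * (Q : ℤ) - 1 - 5 * b : ℤ) : ℝ) : ℂ) - 1 / 2)
        = (((((5 * (Q : ℤ) - 1 - 5 * b : ℤ) : ℝ) - 1 / 2 : ℝ)) : ℂ) := by
      push_cast
      ring
    rw [this, Complex.norm_real, Real.norm_eq_abs, sq_abs]
  rw [Finset.sum_congr rfl hm, Finset.sum_const, Nat.card_Ico, nsmul_eq_mul]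
  have hint : (0 : ℤ) ≤ ((Q : ℤ) - b) * (5 * ((Q : ℤ) - b) - 3) := by
    rcases le_or_gt ((Q : ℤ) - b) 0 with h | h
    · nlinarith
    · have : (1 : ℤ) ≤ (Q : ℤ) - b := h
      nlinarith
  have hreal : (0 : ℝ) ≤ ((Q : ℝ) - b) * (5 * ((Q : ℝ) - b) - 3) := by exact_mod_cast hint
  have h41 : ((5 - 1 : ℕ) : ℝ) = 4 := by norm_num
  rw [h41]
  push_cast
  nlinarith [hreal]

end Cfsg.Agent.Lib.Helper41.CharCount
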