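import Mathlib
import Cfsg.Agent.Lib.Helper44.ESDefs

/-!
# ES-K2 (S5877, helper44's job board): the map `x` shifts common eigenspaces (helper41)
-/

set_option autoImplicit false

namespace Cfsg.Agent.Lib.Helper44.ES

open Module Module.End

theorem es_k2 {n : ℕ} {F : Type*} [Field F] (g x a : Matrix (Fin n) (Fin n) F) (hx : IsUnit x) (ζ : F)
    (t e i : ℕ) (lam : F) (hgx : g * x = ζ ^ t • (x * a * g)) (hax : a * x = ζ ^ e • (x * a)) :
    dd g a lam (ζ ^ i) ≤ dd g a (lam * ζ ^ (t + i)) (ζ ^ (i + e)) := by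
  unfold dd
  have hxinj : Function.Injective (Matrix.toLin' x) := by
    have h1 := Matrix.mulVec_injective_iff_isUnit.mpr hx
    intro u v huv
    apply h1
    simpa [Matrix.toLin'_apply] using huv
  have hmaps : ∀ w ∈ Module.End.eigenspace (Matrix.toLin' g) lam ⊓
        Module.End.eigenspace (Matrix.toLin' a) (ζ ^ i),
      Matrix.toLin' x w ∈ Module.End.eigenspace (Matrix.toLin' g) (lam * ζ ^ (t + i)) ⊓
        Module.End.eigenspace (Matrix.toLin' a) (ζ ^ (i + e)) := by
    intro w hw
    obtain ⟨hw1, hw2⟩ := Submodule.mem_inf.mp hw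
    rw [Module.End.mem_eigenspace_iff, Matrix.toLin'_apply] at hw1 hw2
    refine Submodule.mem_inf.mpr ⟨?_, ?_⟩
    · rw [Module.End.mem_eigenspace_iff, Matrix.toLin'_apply, Matrix.toLin'_apply,
        Matrix.mulVec_mulVec, hgx, Matrix.smul_mulVec, ← Matrix.mulVec_mulVec,
        ← Matrix.mulVec_mulVec, hw1, Matrix.mulVec_smul, hw2, Matrix.mulVec_smul,
        Matrix.mulVec_smul, smul_smul, smul_smul, pow_add]
      congr 1
      ring
    · rw [Module.End.mem_eigenspace_iff, Matrix.toLin'_apply, Matrix.toLin'_apply,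
        Matrix.mulVec_mulVec, hax, Matrix.smul_mulVec, ← Matrix.mulVec_mulVec, hw2,
        Matrix.mulVec_smul, smul_smul, pow_add]
      congr 1
      ring
  refine LinearMap.finrank_le_finrank_of_injective (f := (Matrix.toLin' x).restrict hmaps) ?_
  intro u v huv
  apply Subtype.ext
  apply hxinj
  have h1 := congrArg Subtype.val huv
  simpa using h1

end Cfsg.Agent.Lib.Helper44.ES
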