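import Mathlib
import Cfsg.Agent.Lib.Helper44.ESDefs

/-!
# ES-K3 (S5877, helper44's job board): independence of common eigenspaces (helper41)
-/

set_option autoImplicit false

namespace Cfsg.Agent.Lib.Helper44.ES

open Module Module.End

/-- the dimensions of finitely many members of an independent family of subspaces add up to at most
the dimension of their span -/
theorem esk3_sum_le {F V ι : Type*} [Field F] [AddCommGroup V] [Module F V]
    [FiniteDimensional F V] [DecidableEq ι] (D : ι → Submodule F V) (h : iSupIndep D)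
    (s : Finset ι) :
    ∑ k ∈ s, Module.finrank F (D k) ≤ Module.finrank F ↥(⨆ k ∈ s, D k) := by
  induction s using Finset.induction_on with
  | empty => simp
  | insert a s ha ih =>
    rw [Finset.sum_insert ha, Finset.iSup_insert]
    have hdisj : Disjoint (D a) (⨆ k ∈ s, D k) := by
      refine (h a).mono_right ?_
      refine iSup₂_le fun k hk => ?_
      exact le_iSup₂_of_le k (fun hka => ha (hka ▸ hk)) le_rfl
    have h1 := Submodule.finrank_sup_add_finrank_inf_eq (D a) (⨆ k ∈ s, D k)
    rw [disjoint_iff.mp hdisj] at h1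
    simp at h1
    omega

theorem es_k3 {n : ℕ} {F : Type*} [Field F] (g a : Matrix (Fin n) (Fin n) F) (ζ : F) (r : ℕ)
    (hζ : ζ ^ r = 1) (hζ' : ∀ j, 0 < j → j < r → ζ ^ j ≠ 1) (c : F) (hc : c ≠ 0) (mu : F) :
    ∑ k ∈ Finset.range r, dd g a (c * ζ ^ k) mu
      ≤ Module.finrank F (Module.End.eigenspace (Matrix.toLin' a) mu) := by
  classical
  have hind : iSupIndep (fun lam : F => Module.End.eigenspace (Matrix.toLin' g) lam ⊓
      Module.End.eigenspace (Matrix.toLin' a) mu) :=
    (Module.End.eigenspaces_iSupIndep (Matrix.toLin' g)).mono (fun lam => inf_le_left)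
  have hlt : ∀ k l : ℕ, k < l → l < r → ζ ^ k ≠ ζ ^ l := by
    intro k l hkl hlr hkl'
    have hr : 0 < r := by omega
    have hζ0 : ζ ≠ 0 := by
      rintro rfl
      rw [zero_pow hr.ne'] at hζ
      exact zero_ne_one hζ
    have h1 : ζ ^ l = ζ ^ k * ζ ^ (l - k) := by
      rw [← pow_add]; congr 1; omega
    rw [h1] at hkl'
    have h2 : ζ ^ (l - k) = 1 := by
      have h3 : ζ ^ k * ζ ^ (l - k) = ζ ^ k * 1 := by rw [mul_one]; exact hkl'.symm
      exact mul_left_cancel₀ (pow_ne_zero k hζ0) h3
    exact hζ' (l - k) (by omega) (by omega) h2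
  have hinj : ∀ k ∈ Finset.range r, ∀ l ∈ Finset.range r, c * ζ ^ k = c * ζ ^ l → k = l := by
    intro k hk l hl hkl
    rw [Finset.mem_range] at hk hl
    have h1 : ζ ^ k = ζ ^ l := mul_left_cancel₀ hc hkl
    rcases Nat.lt_trichotomy k l with h | h | h
    · exact absurd h1 (hlt k l h hl)
    · exact h
    · exact absurd h1.symm (hlt l k h hk)
  have hsum : ∑ k ∈ Finset.range r, dd g a (c * ζ ^ k) mu
      = ∑ lam ∈ (Finset.range r).image (fun k => c * ζ ^ k), dd g a lam mu := by
    rw [Finset.sum_image hinj]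
  rw [hsum]
  unfold dd
  refine (esk3_sum_le _ hind _).trans ?_
  apply Submodule.finrank_mono
  exact iSup₂_le fun lam _ => inf_le_right

end Cfsg.Agent.Lib.Helper44.ES
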