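import Mathlib
import Cfsg.Prelude.Def_GeometricClasses
import Cfsg.Prelude.Def_Classical
import Cfsg.Agent.Lib.Helper42.H74SIEGOM

/-!
Project H74, batch 2 (helper98, for S5990), piece SIEGOMM: in characteristic 2 the Siegel element
`fromBlocks (fromBlocks 1 S 0 1) 0 0 1` (`S` symmetric with zero diagonal, `k ≥ 3`) lies in
`omegaGL (quadFormMinus k F a b)`.

Proof: `g ↦ diag(g, 1)` is a homomorphism from the isometry group of `quadFormPlus k F` to the
isometry group of `quadFormMinus k F a b`, so it maps commutator subgroup into commutator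
subgroup; apply it to the element of `Helper42.H74SIEGOM` (`siegel_mem_omega`).
-/

set_option autoImplicit false
set_option linter.unusedSectionVars false

namespace Cfsg.Agent.Lib.Helper98.H74

open Matrix

universe u

variable {F : Type u} [Field F] [Fintype F]

/-- the embedding `g ↦ diag(g, 1)` -/
def siegommE (k : ℕ) : GL (Fin k ⊕ Fin k) F →* GL ((Fin k ⊕ Fin k) ⊕ Fin 2) F where
  toFun g := ⟨Matrix.fromBlocks (g : Matrix (Fin k ⊕ Fin k) (Fin k ⊕ Fin k) F) 0 0 1,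
    Matrix.fromBlocks ((g⁻¹ : GL (Fin k ⊕ Fin k) F) : Matrix (Fin k ⊕ Fin k) (Fin k ⊕ Fin k) F)
      0 0 1, by
      rw [Matrix.fromBlocks_multiply]; simp [Matrix.fromBlocks_one], by
      rw [Matrix.fromBlocks_multiply]; simp [Matrix.fromBlocks_one]⟩
  map_one' := by
    apply Units.ext
    simp [Matrix.fromBlocks_one]
  map_mul' g h := by
    apply Units.ext
    simp [Matrix.fromBlocks_multiply]

theorem siegommE_coe (k : ℕ) (g : GL (Fin k ⊕ Fin k) F) :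
    ((siegommE k g : GL ((Fin k ⊕ Fin k) ⊕ Fin 2) F) :
      Matrix ((Fin k ⊕ Fin k) ⊕ Fin 2) ((Fin k ⊕ Fin k) ⊕ Fin 2) F) =
      Matrix.fromBlocks (g : Matrix (Fin k ⊕ Fin k) (Fin k ⊕ Fin k) F) 0 0 1 := rfl

theorem siegomm_Q (k : ℕ) (a b : F) (v : (Fin k ⊕ Fin k) ⊕ Fin 2 → F) :
    Cfsg.quadFormMinus k F a b v = Cfsg.quadFormPlus k F (v ∘ Sum.inl) +
      (v (.inr 0) ^ 2 + a * v (.inr 0) * v (.inr 1) + b * v (.inr 1) ^ 2) := rfl

theorem siegommE_mem (k : ℕ) (a b : F) (g : GL (Fin k ⊕ Fin k) F)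
    (hg : g ∈ Cfsg.isometryGroup F (Cfsg.quadFormPlus k F)) :
    siegommE k g ∈ Cfsg.isometryGroup F (Cfsg.quadFormMinus k F a b) := by
  intro u v
  change Cfsg.quadFormMinus k F a b
      (Matrix.fromBlocks (g : Matrix (Fin k ⊕ Fin k) (Fin k ⊕ Fin k) F) 0 0 1 *ᵥ u) =
    Cfsg.quadFormMinus k F a b u
  have h : Cfsg.quadFormPlus k F
      ((g : Matrix (Fin k ⊕ Fin k) (Fin k ⊕ Fin k) F) *ᵥ (u ∘ Sum.inl)) =
      Cfsg.quadFormPlus k F (u ∘ Sum.inl) := hg (u ∘ Sum.inl) (u ∘ Sum.inl)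
  rw [siegomm_Q, siegomm_Q, Matrix.fromBlocks_mulVec]
  simp only [Sum.elim_comp_inl, Sum.elim_inr, Matrix.zero_mulVec, add_zero, zero_add,
    Matrix.one_mulVec, Function.comp_apply]
  rw [h]

/-- the induced homomorphism of isometry groups -/
def siegommPhi (k : ℕ) (a b : F) :
    ↥(Cfsg.isometryGroup F (Cfsg.quadFormPlus k F)) →*
      ↥(Cfsg.isometryGroup F (Cfsg.quadFormMinus k F a b)) :=
  ((siegommE k).comp (Cfsg.isometryGroup F (Cfsg.quadFormPlus k F)).subtype).codRestrict _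
    (fun y => siegommE_mem k a b y.1 y.2)

/-- SIEGOMM -/
theorem siegel_mem_omega_minus [CharP F 2] (k : ℕ) (hk : 3 ≤ k) (a b : F)
    (S : Matrix (Fin k) (Fin k) F) (hS0 : ∀ c, S c c = 0) (hSt : S.transpose = S) :
    ∃ x : GL ((Fin k ⊕ Fin k) ⊕ Fin 2) F, x ∈ Cfsg.Geo.omegaGL (Cfsg.quadFormMinus k F a b) ∧
      (x : Matrix ((Fin k ⊕ Fin k) ⊕ Fin 2) ((Fin k ⊕ Fin k) ⊕ Fin 2) F)
        = Matrix.fromBlocks (Matrix.fromBlocks 1 S 0 1) 0 0 1 := by
  obtain ⟨x, hx, ex⟩ := siegel_mem_omega k hk S hS0 hSt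
  obtain ⟨y, hy, rfl⟩ := hx
  have ex' : ((y : GL (Fin k ⊕ Fin k) F) : Matrix (Fin k ⊕ Fin k) (Fin k ⊕ Fin k) F) =
      Matrix.fromBlocks 1 S 0 1 := ex
  have h1 : (commutator ↥(Cfsg.isometryGroup F (Cfsg.quadFormPlus k F))).map
      (siegommPhi k a b) ≤
      commutator ↥(Cfsg.isometryGroup F (Cfsg.quadFormMinus k F a b)) := by
    rw [commutator_def, commutator_def, Subgroup.map_commutator]
    exact Subgroup.commutator_mono le_top le_top
  refine ⟨siegommE k (y : GL (Fin k ⊕ Fin k) F), ?_, ?_⟩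
  · exact ⟨siegommPhi k a b y, h1 (Subgroup.mem_map_of_mem _ hy), rfl⟩
  · rw [siegommE_coe, ex']

end Cfsg.Agent.Lib.Helper98.H74
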