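import Mathlib
import Cfsg.Agent.Lib.Helper72.JLDefs
import Cfsg.Agent.Lib.Helper75.PSolvOfSolv

/-!
# JL-PS (S2942, helper72's job board): the range of `rhoT` is 2-solvable (helper41)
-/

set_option autoImplicit false

namespace Cfsg.Agent.Lib.Helper41.JL

open Cfsg.Agent.Lib.Helper72.JL Cfsg.Agent.Lib.Helper72.SC Cfsg.Agent.Lib.Helper78.Jc

universe u

theorem ps : PsStmt.{u} := by
  intro X _ _ T hS
  haveI : Group.IsSolvable X := hS.hsolv
  haveI : Group.IsSolvable ↥(rhoT T).range :=
    solvable_of_surjective (f := (rhoT T).rangeRestrict) (rhoT T).rangeRestrict_surjective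
  exact Cfsg.Agent.Lib.Helper75.PSS.isPSolvable_of_isSolvable 2 Nat.prime_two _

end Cfsg.Agent.Lib.Helper41.JL
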