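import Mathlib
import Cfsg.Prelude.Def_GeometricClasses
import Cfsg.Prelude.Def_LieClassical

/-! Project O9 (helper44, statement S5835), piece D33: for `q = 3` an orthogonal decomposition of
`F⁹` into three isometric 3-spaces refines to nine lines permuted by every isometry stabilising it. -/

set_option autoImplicit false

namespace Cfsg.Agent.Lib.Helper44.O9

open Matrix Cfsg.Geo

variable {n : ℕ} {F : Type*} [Field F] [Fintype F]

/-- the index bijection used for the nine lines -/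
def D33_idx : Fin 9 ≃ Fin 3 × Fin 3 := (finProdFinEquiv (m := 3) (n := 3)).symm

/-- the polar form as a bilinear map -/
noncomputable def D33_B (Q : (Fin 9 → F) → F) (hQ : IsNondegenerateQuadraticForm Q) :
    (Fin 9 → F) →ₗ[F] (Fin 9 → F) →ₗ[F] F :=
  LinearMap.mk₂ F (QuadraticMap.polar Q) hQ.polar_bilinear.add_left
    (fun c x v => by rw [smul_eq_mul]; exact hQ.polar_bilinear.smul_left c x v)
    hQ.polar_bilinear.add_right
    (fun c x v => by rw [smul_eq_mul]; exact hQ.polar_bilinear.smul_right c x v)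

theorem D33_B_apply (Q : (Fin 9 → F) → F) (hQ : IsNondegenerateQuadraticForm Q)
    (x y : Fin 9 → F) : D33_B Q hQ x y = QuadraticMap.polar Q x y := rfl

theorem D33_two_ne (hq : Fintype.card F = 3) : (2 : F) ≠ 0 := by
  have h3 : (3 : F) = 0 := by
    have h := card_nsmul_eq_zero (G := F) (x := (1 : F))
    rw [hq] at h
    simpa using h
  intro h
  have h1 : (1 : F) = 0 := by linear_combination h3 - h
  exact one_ne_zero h1

theorem D33_polar_self (Q : (Fin 9 → F) → F) (hQ : IsNondegenerateQuadraticForm Q)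
    (x : Fin 9 → F) : QuadraticMap.polar Q x x = 2 * Q x := by
  have h1 : x + x = (2 : F) • x := (two_smul F x).symm
  show Q (x + x) - Q x - Q x = 2 * Q x
  rw [h1, hQ.smul]
  ring

theorem D33_polar_mulVec (Q : (Fin 9 → F) → F) (g : Matrix (Fin 9) (Fin 9) F)
    (hg : ∀ v, Q (g *ᵥ v) = Q v) (x y : Fin 9 → F) :
    QuadraticMap.polar Q (g *ᵥ x) (g *ᵥ y) = QuadraticMap.polar Q x y := by
  show Q (g *ᵥ x + g *ᵥ y) - Q (g *ᵥ x) - Q (g *ᵥ y) = Q (x + y) - Q x - Q y
  rw [← Matrix.mulVec_add, hg, hg, hg]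

theorem D33_polar_equiv (Q : (Fin 9 → F) → F) (W W' : Submodule F (Fin 9 → F))
    (φ : W ≃ₗ[F] W') (hφ : ∀ x : W, Q ((φ x : W') : Fin 9 → F) = Q (x : Fin 9 → F)) (x y : W) :
    QuadraticMap.polar Q ((φ x : W') : Fin 9 → F) ((φ y : W') : Fin 9 → F) =
      QuadraticMap.polar Q (x : Fin 9 → F) (y : Fin 9 → F) := by
  show Q (((φ x : W') : Fin 9 → F) + ((φ y : W') : Fin 9 → F)) - Q ((φ x : W') : Fin 9 → F) -
      Q ((φ y : W') : Fin 9 → F) = Q ((x : Fin 9 → F) + (y : Fin 9 → F)) - Q (x : Fin 9 → F) -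
      Q (y : Fin 9 → F)
  rw [← Submodule.coe_add, ← map_add, hφ, hφ, hφ, Submodule.coe_add]

theorem D33 (hq : Fintype.card F = 3) (Q : (Fin 9 → F) → F)
    (hQ : IsNondegenerateQuadraticForm Q) (D : Fin 3 → Submodule F (Fin 9 → F))
    (hD : IsOrthogonalMDecomposition Q 3 D)
    (w : Fin 3 → Fin 9 → F) (ε : F) (hε : ε ≠ 0) (hw : ∀ j, w j ∈ D 0)
    (hnorm : ∀ j, QuadraticMap.polar Q (w j) (w j) = ε)
    (horth : ∀ j k, j ≠ k → QuadraticMap.polar Q (w j) (w k) = 0)
    (hfr : ∀ x ∈ D 0, QuadraticMap.polar Q x x = ε → ∃ j, x = w j ∨ x = - w j) :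
    ∃ D' : Fin 9 → Submodule F (Fin 9 → F), IsOrthogonalMDecomposition Q 1 D' ∧
      ∀ g : GL (Fin 9) F, g ∈ decompositionStabilizer D → (∀ v, Q (g.1 *ᵥ v) = Q v) →
        ∀ i, ∃ j, (D' i).map (Matrix.toLin' g.1) = D' j := by
  have h2 : (2 : F) ≠ 0 := D33_two_ne hq
  have hbl := hQ.polar_bilinear
  choose φ hφ using hD.isometric 0
  -- the nine vectors
  set u : Fin 3 → Fin 3 → (Fin 9 → F) := fun i j => ((φ i ⟨w j, hw j⟩ : D i) : Fin 9 → F) with hu
  have hu_mem : ∀ i j, u i j ∈ D i := fun i j => (φ i ⟨w j, hw j⟩).2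
  have hu_in : ∀ i j k, QuadraticMap.polar Q (u i j) (u i k) = QuadraticMap.polar Q (w j) (w k) :=
    fun i j k => D33_polar_equiv Q (D 0) (D i) (φ i) (hφ i) ⟨w j, hw j⟩ ⟨w k, hw k⟩
  have hu_out : ∀ i i' j k, i ≠ i' → QuadraticMap.polar Q (u i j) (u i' k) = 0 :=
    fun i i' j k h => hD.decomp.orthogonal i i' h _ (hu_mem i j) _ (hu_mem i' k)
  have hu_fr : ∀ i, ∀ x ∈ D i, QuadraticMap.polar Q x x = ε → ∃ j, x = u i j ∨ x = - u i j := by
    intro i x hx hxε
    set y : D 0 := (φ i).symm ⟨x, hx⟩ with hy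
    have hx' : x = ((φ i y : D i) : Fin 9 → F) := by
      rw [hy, LinearEquiv.apply_symm_apply]
    have hyε : QuadraticMap.polar Q (y : Fin 9 → F) (y : Fin 9 → F) = ε := by
      rw [← D33_polar_equiv Q (D 0) (D i) (φ i) (hφ i) y y, ← hx']
      exact hxε
    obtain ⟨j, hj | hj⟩ := hfr (y : Fin 9 → F) y.2 hyε
    · refine ⟨j, Or.inl ?_⟩
      have e : y = ⟨w j, hw j⟩ := Subtype.ext hj
      rw [hx', e]
    · refine ⟨j, Or.inr ?_⟩
      have e : y = -⟨w j, hw j⟩ := Subtype.ext (by rw [hj]; rfl)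
      rw [hx', e, map_neg, Submodule.coe_neg]
  set v : Fin 9 → (Fin 9 → F) := fun c => u (D33_idx c).1 (D33_idx c).2 with hv
  have hv_norm : ∀ c, QuadraticMap.polar Q (v c) (v c) = ε := by
    intro c
    show QuadraticMap.polar Q (u (D33_idx c).1 (D33_idx c).2) (u (D33_idx c).1 (D33_idx c).2) = ε
    rw [hu_in]
    exact hnorm _
  have hv_orth : ∀ c c', c ≠ c' → QuadraticMap.polar Q (v c) (v c') = 0 := by
    intro c c' hcc'
    show QuadraticMap.polar Q (u (D33_idx c).1 (D33_idx c).2) (u (D33_idx c').1 (D33_idx c').2) = 0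
    by_cases h1 : (D33_idx c).1 = (D33_idx c').1
    · have h3 : (D33_idx c).2 ≠ (D33_idx c').2 := by
        intro h3
        exact hcc' (D33_idx.injective (Prod.ext h1 h3))
      rw [← h1, hu_in]
      exact horth _ _ h3
    · exact hu_out _ _ _ _ h1
  have hli : LinearIndependent F v := by
    refine LinearMap.linearIndependent_of_isOrthoᵢ (B := D33_B Q hQ) ?_ ?_
    · intro c c' hcc'
      show D33_B Q hQ (v c) (v c') = 0
      rw [D33_B_apply]
      exact hv_orth c c' hcc'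
    · intro c hc
      have hc' : D33_B Q hQ (v c) (v c) = 0 := hc
      rw [D33_B_apply, hv_norm] at hc'
      exact hε hc'
  have hv0 : ∀ c, v c ≠ 0 := fun c => hli.ne_zero c
  have hvQ : ∀ c c', Q (v c) = Q (v c') := by
    intro c c'
    have e1 := D33_polar_self Q hQ (v c)
    have e2 := D33_polar_self Q hQ (v c')
    rw [hv_norm] at e1 e2
    exact mul_left_cancel₀ h2 (e1.symm.trans e2)
  refine ⟨fun c => Submodule.span F {v c}, ⟨⟨⟨by norm_num, by norm_num, ?_, ?_, ?_⟩, ?_, ?_⟩, ?_⟩, ?_⟩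
  · intro c
    exact finrank_span_singleton (hv0 c)
  · exact hli.iSupIndep_span_singleton
  · rw [← Submodule.span_range_eq_iSup]
    exact hli.span_eq_top_of_card_eq_finrank' (by simp)
  · intro c x hx hx0
    obtain ⟨a, rfl⟩ := Submodule.mem_span_singleton.mp hx
    have ha : a ≠ 0 := by
      rintro rfl
      exact hx0 (zero_smul F (v c))
    refine ⟨⟨v c, Submodule.mem_span_singleton_self _, ?_⟩, ⟨v c, Submodule.mem_span_singleton_self _, ?_⟩⟩
    · rw [hbl.smul_right, hv_norm]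
      exact mul_ne_zero ha hε
    · rw [hbl.smul_left, hv_norm]
      exact mul_ne_zero ha hε
  · intro c c' hcc' x hx y hy
    obtain ⟨a, rfl⟩ := Submodule.mem_span_singleton.mp hx
    obtain ⟨a', rfl⟩ := Submodule.mem_span_singleton.mp hy
    rw [hbl.smul_left, hbl.smul_right, hv_orth c c' hcc', mul_zero, mul_zero]
  · intro c c'
    refine ⟨(LinearEquiv.toSpanNonzeroSingleton F (Fin 9 → F) (v c) (hv0 c)).symm.trans
      (LinearEquiv.toSpanNonzeroSingleton F (Fin 9 → F) (v c') (hv0 c')), ?_⟩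
    intro x
    set a : F := (LinearEquiv.toSpanNonzeroSingleton F (Fin 9 → F) (v c) (hv0 c)).symm x with ha
    have hx : (x : Fin 9 → F) = a • v c :=
      (LinearEquiv.toSpanNonzeroSingleton_symm_apply_smul F (Fin 9 → F) (v c) (hv0 c) x).symm
    have he : ((((LinearEquiv.toSpanNonzeroSingleton F (Fin 9 → F) (v c) (hv0 c)).symm.trans
        (LinearEquiv.toSpanNonzeroSingleton F (Fin 9 → F) (v c') (hv0 c'))) x :
        Submodule.span F {v c'}) : Fin 9 → F) = a • v c' := by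
      rw [LinearEquiv.trans_apply, LinearEquiv.toSpanNonzeroSingleton_apply]
    rw [he, hx, hQ.smul, hQ.smul, hvQ c c']
  · intro g hg hgQ c
    obtain ⟨σ, hσ⟩ := hg
    have hmem : g.1 *ᵥ v c ∈ D (σ (D33_idx c).1) := by
      rw [← hσ]
      refine ⟨v c, hu_mem _ _, ?_⟩
      rw [Matrix.toLin'_apply]
    have hn : QuadraticMap.polar Q (g.1 *ᵥ v c) (g.1 *ᵥ v c) = ε := by
      rw [D33_polar_mulVec Q g.1 hgQ]
      exact hv_norm c
    obtain ⟨j', hj'⟩ := hu_fr _ _ hmem hn
    refine ⟨D33_idx.symm (σ (D33_idx c).1, j'), ?_⟩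
    have hmap : (Submodule.span F {v c}).map (Matrix.toLin' g.1) = Submodule.span F {g.1 *ᵥ v c} := by
      rw [Submodule.map_span, Set.image_singleton, Matrix.toLin'_apply]
    have hv' : v (D33_idx.symm (σ (D33_idx c).1, j')) = u (σ (D33_idx c).1) j' := by
      show u (D33_idx (D33_idx.symm (σ (D33_idx c).1, j'))).1
        (D33_idx (D33_idx.symm (σ (D33_idx c).1, j'))).2 = _
      rw [Equiv.apply_symm_apply]
    show (Submodule.span F {v c}).map (Matrix.toLin' g.1) =
      Submodule.span F {v (D33_idx.symm (σ (D33_idx c).1, j'))}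
    rw [hmap, hv']
    rcases hj' with hj' | hj'
    · rw [hj']
    · rw [hj', ← neg_one_smul F (u (σ (D33_idx c).1) j')]
      exact Submodule.span_singleton_smul_eq isUnit_one.neg _

end Cfsg.Agent.Lib.Helper44.O9
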