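import Cfsg.Agent.Lib.Helper98.T73Defs

/-!
# Project T73 (S5973), piece CHARPU: the fixed space and the commutator space of an isometry are
determined by the factorisation of its characteristic polynomial.
-/

set_option autoImplicit false

namespace Cfsg.Agent.Lib.Helper98.T73

open Cfsg.Agent.Lib.Helper47 Module Polynomial

universe u

variable {F : Type u} [Field F] [Fintype F] {V : Type u} [AddCommGroup V] [Module F V]
  [FiniteDimensional F V] {Q : V → F} {B : V → V → F}

/-- CHARPU -/
theorem charp_unique (p : ℕ) [Fact p.Prime] [CharP F p] (r : ℕ) (hr : r.Prime) (hrp : r ≠ p)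
    (g : Module.End F V) (hg : g ^ r = 1) (u : Multiset F[X]) (hu : ∀ f ∈ u, IsCycFactor r f)
    (e : ℕ) (hch : g.charpoly = (X - 1) ^ e * u.prod) :
    finrank F (LinearMap.ker (g - 1)) = e ∧
      finrank F (LinearMap.range (g - 1))
        = orderOf ((Fintype.card F : ℕ) : ZMod r) * Multiset.card u ∧
      (u ≠ 0 → g ≠ 1) := by
  have hrF : (r : F) ≠ 0 :=
    natCast_ne_zero_of_coprime p ((Nat.coprime_primes hr Fact.out).mpr hrp)
  have h1 := charpoly_eq_ker_range g r hrF hg
  have hcmp : (X - 1 : F[X]) ^ finrank F (LinearMap.ker (g - 1)) *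
      (resInv g (range_sub_one_invt g)).charpoly = (X - 1) ^ e * u.prod := by
    rw [← h1, hch]
  obtain ⟨hk, hP⟩ := pow_mul_cancel_of_eval_ne hcmp
    (eval_one_charpoly_resInv_range g r hrF hg) (cyc_prod_eval_one_ne p hr hrp u hu)
  have hdeg : ∀ f ∈ u, f.natDegree = orderOf ((Fintype.card F : ℕ) : ZMod r) :=
    fun f hf => (hu f hf).natDegree_eq (p := p) rfl hr hrp
  have hrange : finrank F (LinearMap.range (g - 1)) =
      orderOf ((Fintype.card F : ℕ) : ZMod r) * Multiset.card u := by
    rw [← LinearMap.charpoly_natDegree (resInv g (range_sub_one_invt g)), hP,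
      Polynomial.natDegree_multiset_prod_of_monic u (fun f hf => (hu f hf).1),
      Multiset.map_congr rfl hdeg, Multiset.map_const', Multiset.sum_replicate, smul_eq_mul,
      mul_comm]
  refine ⟨hk, hrange, ?_⟩
  intro hu0 hg1
  obtain ⟨f, hf⟩ := Multiset.exists_mem_of_ne_zero hu0
  have hpos : 0 < orderOf ((Fintype.card F : ℕ) : ZMod r) := by
    rw [← hdeg f hf]
    exact (hu f hf).2.1.natDegree_pos
  have hcard : 0 < Multiset.card u := Multiset.card_pos.mpr hu0
  have h0 : finrank F (LinearMap.range (g - 1)) = 0 := by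
    rw [hg1, sub_self, LinearMap.range_zero, finrank_bot]
  rw [hrange] at h0
  exact (Nat.mul_pos hpos hcard).ne' h0

end Cfsg.Agent.Lib.Helper98.T73
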