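import Cfsg.Agent.Lib.Helper22.W2Defs

/-!
# Project W2 (S4707), piece SIMPLE60

A group of order 60 in which every nontrivial normal subgroup has order divisible by 10 and a
Sylow 5-subgroup has a normalizer of order 10 is simple.

Proof: let `K` be a proper nontrivial normal subgroup.  `|G : K|` divides 6, so `P ≤ K`; by the
Frattini argument `|G : K|` divides `|N(P)| = 10`, so `|G : K| = 2`, `|K| = 30` and
`N_K(P) = P`.  Burnside's transfer gives a normal complement `M` of `P` in `K`, of order 6;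
`M = {x ∈ K : x ^ 6 = 1}` is normal in `G`, against the hypothesis.
-/

set_option autoImplicit false

namespace Cfsg.Agent.Lib.Helper41.W2

open Cfsg Cfsg.Agent.Lib.Helper22.W2
open scoped ComplexConjugate

universe u

variable {G : Type u} [Group G] [Fintype G]

/-- PIECE SIMPLE60 -/
theorem simple60 (hcard : Nat.card G = 60)
    (hnd : ∀ K : Subgroup G, K.Normal → K ≠ ⊥ → 10 ∣ Nat.card K) (P : Sylow 5 G)
    (hN : Nat.card (Subgroup.normalizer ((P : Subgroup G) : Set G)) = 10) :
    IsSimpleGroup G := by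
  haveI : Fact (Nat.Prime 5) := ⟨by norm_num⟩
  haveI : Nontrivial G := Finite.one_lt_card_iff_nontrivial.mp (by rw [hcard]; norm_num)
  have hP5 : Nat.card (P : Subgroup G) = 5 := by
    obtain ⟨n, hn⟩ := IsPGroup.iff_card.mp P.isPGroup'
    have h5 : 5 ∣ Nat.card (P : Subgroup G) :=
      P.dvd_card_of_dvd_card (by rw [hcard]; norm_num)
    have hd : Nat.card (P : Subgroup G) ∣ 60 := by
      rw [← hcard]; exact Subgroup.card_subgroup_dvd_card _
    rw [hn] at h5 hd ⊢
    rcases n with _ | _ | n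
    · norm_num at h5
    · norm_num
    · exfalso
      have h25' : 25 ∣ 5 ^ (n + 1 + 1) := ⟨5 ^ n, by ring⟩
      have h25 : 25 ∣ 60 := h25'.trans hd
      norm_num at h25
  refine ⟨fun K hK => ?_⟩
  by_contra hcon
  push_neg at hcon
  obtain ⟨hKbot, hKtop⟩ := hcon
  have h10 := hnd K hK hKbot
  have hKcard : Nat.card K * K.index = 60 := by rw [Subgroup.card_mul_index, hcard]
  obtain ⟨m, hm⟩ := h10
  have hmK : m * K.index = 6 := by
    have h1 : 10 * (m * K.index) = 10 * 6 := by rw [← mul_assoc, ← hm]; exact hKcard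
    exact Nat.eq_of_mul_eq_mul_left (by norm_num) h1
  have hidx6 : K.index ∣ 6 := Dvd.intro_left m hmK
  haveI := hK
  have hPK : (P : Subgroup G) ≤ K := by
    rw [← Subgroup.relIndex_eq_one]
    have h1 : K.relIndex (P : Subgroup G) ∣ K.index :=
      Subgroup.relIndex_dvd_index_of_normal K (P : Subgroup G)
    have h2 := Subgroup.relIndex_dvd_card K (P : Subgroup G)
    rw [hP5] at h2
    have h3 := Nat.dvd_gcd (h1.trans hidx6) h2
    have hg : Nat.gcd 6 5 = 1 := by norm_num
    rw [hg] at h3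
    exact Nat.dvd_one.mp h3
  have hfr : Subgroup.normalizer ((P : Subgroup G) : Set G) ⊔ K = ⊤ :=
    Sylow.normalizer_sup_eq_top' P hPK
  have hidxN : K.relIndex (Subgroup.normalizer ((P : Subgroup G) : Set G)) = K.index := by
    have e := Subgroup.relIndex_sup_right (Subgroup.normalizer ((P : Subgroup G) : Set G)) K
    rw [hfr, Subgroup.relIndex_top_right] at e
    exact e.symm
  have hidx10 : K.index ∣ 10 := by
    rw [← hidxN, ← hN]; exact Subgroup.relIndex_dvd_card _ _
  have hidx2 : K.index ∣ 2 := by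
    have h3 := Nat.dvd_gcd hidx6 hidx10
    have hg : Nat.gcd 6 10 = 2 := by norm_num
    rwa [hg] at h3
  have hidx : K.index = 2 := by
    rcases (Nat.dvd_prime Nat.prime_two).mp hidx2 with h | h
    · exact absurd (Subgroup.index_eq_one.mp h) hKtop
    · exact h
  have hK30 : Nat.card K = 30 := by
    rw [hidx] at hKcard; omega
  have hKN5 : Nat.card (K ⊓ Subgroup.normalizer ((P : Subgroup G) : Set G) : Subgroup G) = 5 := by
    have h1 := Subgroup.relIndex_mul_relIndex ⊥
      (K ⊓ Subgroup.normalizer ((P : Subgroup G) : Set G))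
      (Subgroup.normalizer ((P : Subgroup G) : Set G)) bot_le inf_le_right
    rw [Subgroup.relIndex_bot_left, Subgroup.relIndex_bot_left, Subgroup.inf_relIndex_right,
      hidxN, hidx, hN] at h1
    omega
  have hPKN : (P : Subgroup G) = K ⊓ Subgroup.normalizer ((P : Subgroup G) : Set G) := by
    apply Subgroup.eq_of_le_of_card_ge (le_inf hPK Subgroup.le_normalizer)
    rw [hKN5, hP5]
  obtain ⟨P', hP'def⟩ : ∃ P' : Sylow 5 ↥K, P' = P.subtype hPK := ⟨_, rfl⟩
  have hP'mem : ∀ x : ↥K, x ∈ (P' : Subgroup ↥K) ↔ (x : G) ∈ (P : Subgroup G) := by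
    intro x
    rw [hP'def, Sylow.coe_subtype, Subgroup.mem_subgroupOf]
  haveI : IsCyclic ↥(P : Subgroup G) := isCyclic_of_prime_card hP5
  have hPcomm : ∀ a ∈ (P : Subgroup G), ∀ b ∈ (P : Subgroup G), a * b = b * a := by
    intro a ha b hb
    have h1 := (IsCyclic.isMulCommutative (α := ↥(P : Subgroup G))).is_comm.comm ⟨a, ha⟩ ⟨b, hb⟩
    exact congrArg Subtype.val h1
  have hP' : Subgroup.normalizer ((P' : Subgroup ↥K) : Set ↥K) ≤
      Subgroup.centralizer ((P' : Subgroup ↥K) : Set ↥K) := by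
    intro x hx
    have hxN : (x : G) ∈ Subgroup.normalizer ((P : Subgroup G) : Set G) := by
      rw [Subgroup.mem_normalizer_iff]
      intro y
      rw [Subgroup.mem_normalizer_iff] at hx
      constructor
      · intro hy
        have h1 := (hx ⟨y, hPK hy⟩).mp ((hP'mem _).mpr hy)
        exact (hP'mem _).mp h1
      · intro hy
        have hyK : y ∈ K := by
          have h1 : (x : G)⁻¹ * ((x : G) * y * (x : G)⁻¹) * (x : G) ∈ K :=
            K.mul_mem (K.mul_mem (K.inv_mem x.2) (hPK hy)) x.2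
          have e : (x : G)⁻¹ * ((x : G) * y * (x : G)⁻¹) * (x : G) = y := by group
          rwa [e] at h1
        have h1 := (hx ⟨y, hyK⟩).mpr ((hP'mem _).mpr hy)
        exact (hP'mem _).mp h1
    have hxP : (x : G) ∈ (P : Subgroup G) := by rw [hPKN]; exact ⟨x.2, hxN⟩
    rw [Subgroup.mem_centralizer_iff]
    intro y hy
    apply Subtype.ext
    exact hPcomm _ ((hP'mem y).mp hy) _ hxP
  have hcompl := MonoidHom.ker_transferSylow_isComplement' P' hP'
  obtain ⟨f, hf⟩ : ∃ f : ↥K →* ↥(P' : Subgroup ↥K), f = MonoidHom.transferSylow P' hP' :=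
    ⟨_, rfl⟩
  rw [← hf] at hcompl
  have hP'5 : Nat.card ↥(P' : Subgroup ↥K) = 5 := by
    rw [hP'def, Sylow.coe_subtype]
    have h1 := Nat.card_congr (Subgroup.subgroupOfEquivOfLe hPK).toEquiv
    rw [h1]
    exact hP5
  have hM6 : Nat.card ↥f.ker = 6 := by
    have h1 := hcompl.card_mul_card
    rw [hP'5, hK30] at h1
    omega
  have hx6 : ∀ k : ↥K, k ^ 6 = 1 → k ∈ f.ker := by
    intro k hk
    rw [MonoidHom.mem_ker]
    have h6 : (f k) ^ 6 = 1 := by rw [← map_pow, hk, map_one]
    have h5 : (f k) ^ 5 = 1 := by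
      have h := pow_card_eq_one' (G := ↥(P' : Subgroup ↥K)) (x := f k)
      rw [hP'5] at h
      exact h
    have e : (f k) ^ 6 = (f k) ^ 5 * f k := pow_succ (f k) 5
    rw [e, h5, one_mul] at h6
    exact h6
  have hker6 : ∀ k ∈ f.ker, k ^ 6 = 1 := by
    intro k hk
    have h := pow_card_eq_one' (G := ↥f.ker) (x := ⟨k, hk⟩)
    rw [hM6] at h
    exact congrArg Subtype.val h
  have hNn6 : Nat.card ↥(f.ker.map K.subtype) = 6 := by
    rw [Subgroup.card_map_of_injective K.subtype_injective, hM6]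
  have hNnormal : (f.ker.map K.subtype).Normal := by
    refine ⟨fun x hx g => ?_⟩
    obtain ⟨m, hm, rfl⟩ := hx
    have hmem : g * (m : G) * g⁻¹ ∈ K := hK.conj_mem _ m.2 g
    refine ⟨⟨g * (m : G) * g⁻¹, hmem⟩, ?_, rfl⟩
    apply hx6
    apply Subtype.ext
    show (g * (m : G) * g⁻¹) ^ 6 = 1
    rw [conj_pow]
    have h1 : (m : G) ^ 6 = 1 := congrArg Subtype.val (hker6 m hm)
    rw [h1]; group
  have hNnbot : f.ker.map K.subtype ≠ ⊥ := by
    intro h
    rw [h, Subgroup.card_bot] at hNn6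
    norm_num at hNn6
  have hfin := hnd _ hNnormal hNnbot
  rw [hNn6] at hfin
  norm_num at hfin

end Cfsg.Agent.Lib.Helper41.W2
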